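-- OFM (S5978) package [ZPM]: an isometry with scalar square has square ±1.
import Mathlib
import Cfsg.Agent.Lib.Helper74.OFM.Defs
import Cfsg.Agent.Lib.Helper45.OPar.Scal
import Cfsg.Agent.Lib.Helper14.Isom

set_option autoImplicit false

namespace Cfsg.Agent.Lib.Helper37.OFM

open Matrix Cfsg.Agent.Lib.Helper74.OFM

universe u

/-- **[ZPM]** -/
theorem pkgZPM : PkgZPM.{u} := by
  intro F _ ι _ _ Q hQ h2 hne x hx z hz
  have hisom : ∀ v, Q ((x : Matrix ι ι F) *ᵥ v) = Q v :=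
    (Cfsg.Agent.Lib.Helper14.mem_isometryGroup_iff Q x).1 hx
  haveI := hne
  have hzz : z * z = 1 :=
    Cfsg.Agent.Lib.Helper45.OPar.pkgScal F ι Q hQ z
      (fun v => by rw [← hz, ← mulVec_mulVec, hisom, hisom])
  exact mul_self_eq_one_iff.1 hzz

end Cfsg.Agent.Lib.Helper37.OFM
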